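import Cfsg.Agent.H94.IF.KOneB

/-!
# (K1) for S5719, third part: a `p'`-subgroup of odd order of `PSL₂(q)` has at most `q` elements
-/

set_option autoImplicit false
set_option linter.unusedSectionVars false

namespace Cfsg.Agent.H94.IF

open Matrix OnePoint
open Cfsg.Agent.ClassicalGeometry.SL2Line Cfsg.Agent.ClassicalGeometry.SL2Borel
open Cfsg.Agent.ClassicalGeometry.MinIndexPSL2

section PSL

variable {F : Type*} [Field F] [DecidableEq F] [Finite F]

local notation "SS" => SpecialLinearGroup (Fin 2) F
local notation "PP" => Matrix.ProjectiveSpecialLinearGroup (Fin 2) F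

theorem one_ne_neg_one (hF : (2 : F) ≠ 0) : (1 : SS) ≠ -1 := by
  intro h
  have h1 : (1 : SS) 0 0 = (-1 : SS) 0 0 := by rw [← h]
  rw [sl_neg_apply, sl_one_apply] at h1
  simp only [if_true] at h1
  apply hF
  linear_combination h1

/-- lift of an element of odd order `r` -/
theorem exists_lift {r : ℕ} (hro : Odd r) {x : PP} (hx : x ^ r = 1) :
    ∃ a : SS, QuotientGroup.mk' (Subgroup.center SS) a = x ∧ a ^ r = 1 := by
  obtain ⟨a0, ha0⟩ := QuotientGroup.mk'_surjective (Subgroup.center SS) x
  have h1 : a0 ^ r ∈ Subgroup.center SS := by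
    rw [← QuotientGroup.eq_one_iff (N := Subgroup.center SS)]
    have h2 : QuotientGroup.mk' (Subgroup.center SS) (a0 ^ r) = 1 := by
      rw [map_pow, ha0, hx]
    exact h2
  rcases mem_center_two h1 with h2 | h2
  · exact ⟨a0, ha0, h2⟩
  · refine ⟨-a0, ?_, ?_⟩
    · rw [← ha0]
      have h3 : (-a0 : SS) = -1 * a0 := by rw [neg_mul, one_mul]
      rw [h3, map_mul]
      have h4 : QuotientGroup.mk' (Subgroup.center SS) (-1 : SS) = 1 :=
        (QuotientGroup.eq_one_iff (N := Subgroup.center SS) (-1 : SS)).2 neg_one_mem_center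
      rw [h4, one_mul]
    · rw [hro.neg_pow, h2, neg_neg]

/-- lifts of odd order of commuting elements commute -/
theorem commute_lift (hF : (2 : F) ≠ 0) {r : ℕ} (hro : Odd r) {a b : SS} (ha : a ^ r = 1) (hb : b ^ r = 1)
    (h : QuotientGroup.mk' (Subgroup.center SS) b * QuotientGroup.mk' (Subgroup.center SS) a =
      QuotientGroup.mk' (Subgroup.center SS) a * QuotientGroup.mk' (Subgroup.center SS) b) : Commute b a := by
  rw [← map_mul, ← map_mul] at h
  have h3 : (b * a)⁻¹ * (a * b) ∈ Subgroup.center SS := by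
    rw [← QuotientGroup.eq (s := Subgroup.center SS)]
    exact h
  rcases mem_center_two h3 with h4 | h4
  · exact (inv_mul_eq_one.1 h4)
  · exfalso
    have h5 : a * b = -(b * a) := by
      have h6 : a * b = b * a * ((b * a)⁻¹ * (a * b)) := by group
      rw [h6, h4, mul_neg, mul_one]
    have h6 : a * b * a⁻¹ = -b := by
      rw [h5, neg_mul, mul_inv_cancel_right]
    have h7 : (-b) ^ r = 1 := by
      have h8 : -b = MulAut.conj a b := by rw [MulAut.conj_apply, h6]
      rw [h8, ← map_pow, hb, map_one]
    rw [hro.neg_pow, hb] at h7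
    exact one_ne_neg_one hF h7.symm

/-- **`p'`-subgroups of odd order of `PSL₂(q)`** have at most `q` elements. -/
theorem card_le_of_odd' {p : ℕ} [Fact p.Prime] [CharP F p] (hF : (2 : F) ≠ 0) {N : Subgroup PP}
    (hodd : Odd (Nat.card N)) (hp : ¬ p ∣ Nat.card N) : Nat.card N ≤ Nat.card F := by
  classical
  by_cases hne : N = ⊥
  · rw [hne, Subgroup.card_bot]
    exact Nat.card_pos
  obtain ⟨r, M, hr, hro, hMN, hM, hexp, hcomm, hnM⟩ := exists_elem (R := N)
    (fun g hg x hx => N.mul_mem (N.mul_mem hg hx) (N.inv_mem hg)) hne hodd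
  obtain ⟨x, hx, hx1⟩ : ∃ x ∈ M, x ≠ 1 := by
    by_contra hcon
    push Not at hcon
    exact hM ((Subgroup.eq_bot_iff_forall M).2 hcon)
  obtain ⟨a, hax, har⟩ := exists_lift hro (hexp x hx)
  have ha1 : a ≠ 1 := by
    rintro rfl
    exact hx1 (by rw [← hax, map_one])
  have : Fact r.Prime := ⟨hr⟩
  have hord : orderOf a = r := orderOf_eq_prime har ha1
  have hordx : orderOf x = r := orderOf_eq_prime (hexp x hx) hx1
  have hrN : r ∣ Nat.card N := by
    rw [← hordx]
    exact Subgroup.orderOf_dvd_natCard N (hMN hx)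
  have hrp : r ≠ p := fun h => hp (h ▸ hrN)
  have hnot : ∀ n : ℕ, a ^ n = 1 → r ∣ n := fun n hn => hord ▸ orderOf_dvd_of_pow_eq_one hn
  have hpp : p.Prime := Fact.out
  have ht : (a 0 0 + a 1 1) ^ 2 ≠ 4 := by
    intro h4
    have h5 : (a 0 0 + a 1 1 - 2) * (a 0 0 + a 1 1 + 2) = 0 := by linear_combination h4
    rcases mul_eq_zero.1 h5 with h6 | h6
    · have h7 := pow_char_of_trace_two (p := p) (a := a) (by linear_combination h6)
      exact hrp ((Nat.prime_dvd_prime_iff_eq hr hpp).1 (hnot p h7))
    · have h7 := pow_char_of_trace_two (p := p) (a := -a) (by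
        rw [sl_neg_apply, sl_neg_apply]
        linear_combination -h6)
      have h8 : a ^ (p * 2) = 1 := by
        have e1 : (-a) ^ (2 * p) = a ^ (2 * p) := (even_two_mul p).neg_pow a
        rw [mul_comm p 2, ← e1, mul_comm 2 p, pow_mul, h7, one_pow]
      have h9 := hnot _ h8
      rcases (hr.dvd_mul).1 h9 with h10 | h10
      · exact hrp ((Nat.prime_dvd_prime_iff_eq hr hpp).1 h10)
      · have h11 := (Nat.prime_dvd_prime_iff_eq hr Nat.prime_two).1 h10
        rw [h11] at hro
        exact absurd hro (by decide)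
  -- every element of the preimage commutes with `a`
  have key : ∀ g ∈ N.comap (QuotientGroup.mk' (Subgroup.center SS)), Commute g a := by
    intro g hg
    have hg' : QuotientGroup.mk' (Subgroup.center SS) g ∈ N := hg
    have hb : Commute (g * a * g⁻¹) a := by
      refine commute_lift hF hro har ?_ ?_
      · have h3 : g * a * g⁻¹ = MulAut.conj g a := by rw [MulAut.conj_apply]
        rw [h3, ← map_pow, har, map_one]
      · rw [map_mul, map_mul, map_inv, hax]
        exact hcomm _ (hnM _ hg' x hx) x hx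
    rcases eq_or_eq_inv hF ht hb (trc_conj _ _) with h1 | h1
    · exact mul_inv_eq_iff_eq_mul.1 h1
    · exfalso
      -- odd powers of `g` invert `a`
      have hpow : ∀ n : ℕ, g ^ (2 * n + 1) * a * (g ^ (2 * n + 1))⁻¹ = a⁻¹ := by
        intro n
        induction n with
        | zero => rwa [mul_zero, zero_add, pow_one]
        | succ n ih =>
          have e : g ^ (2 * (n + 1) + 1) = g * (g * g ^ (2 * n + 1)) := by
            rw [← pow_succ', ← pow_succ']
            ring_nf
          have e2 : g * a⁻¹ * g⁻¹ = a := by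
            have h2 : g * a⁻¹ * g⁻¹ = (g * a * g⁻¹)⁻¹ := by group
            rw [h2, h1, inv_inv]
          calc g ^ (2 * (n + 1) + 1) * a * (g ^ (2 * (n + 1) + 1))⁻¹
              = g * (g * (g ^ (2 * n + 1) * a * (g ^ (2 * n + 1))⁻¹) * g⁻¹) * g⁻¹ := by rw [e]; group
            _ = g * (g * a⁻¹ * g⁻¹) * g⁻¹ := by rw [ih]
            _ = g * a * g⁻¹ := by rw [e2]
            _ = a⁻¹ := h1
      obtain ⟨m, hm⟩ := hodd
      have h2 := hpow m
      rw [← hm] at h2
      have h3 : g ^ Nat.card N ∈ Subgroup.center SS := by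
        rw [← QuotientGroup.eq_one_iff (N := Subgroup.center SS)]
        have h4 : QuotientGroup.mk' (Subgroup.center SS) (g ^ Nat.card N) = 1 := by
          rw [map_pow]
          have h5 : (⟨_, hg'⟩ : N) ^ Nat.card N = 1 := pow_card_eq_one'
          exact congrArg Subtype.val h5
        exact h4
      have h4 : g ^ Nat.card N * a * (g ^ Nat.card N)⁻¹ = a := by
        rw [← Subgroup.mem_center_iff.1 h3 a, mul_inv_cancel_right]
      rw [h4] at h2
      have h5 : a ^ 2 = 1 := by
        rw [sq]
        nth_rw 2 [h2]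
        rw [mul_inv_cancel]
      have h6 := hnot 2 h5
      have h7 := (Nat.prime_dvd_prime_iff_eq hr Nat.prime_two).1 h6
      rw [h7] at hro
      exact absurd hro (by decide)
  have hcard : Nat.card (N.comap (QuotientGroup.mk' (Subgroup.center SS))) ≤ 2 * Nat.card F := by
    refine le_trans ?_ (card_centralizer_le hF ht)
    exact Nat.card_le_card_of_injective (fun g => ⟨g.1, key g.1 g.2⟩) fun x y h => Subtype.ext (congrArg (fun t => t.1) h)
  have hcomap : Nat.card (N.comap (QuotientGroup.mk' (Subgroup.center SS))) =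
      Nat.card (Subgroup.center SS) * Nat.card N := by
    have h1 := (N.comap (QuotientGroup.mk' (Subgroup.center SS))).card_mul_index
    rw [Subgroup.index_comap_of_surjective _ (QuotientGroup.mk'_surjective _)] at h1
    have h2 := N.card_mul_index
    have h3 := Subgroup.card_eq_card_quotient_mul_card_subgroup (Subgroup.center SS)
    have h4 : 0 < N.index := Nat.pos_of_ne_zero Subgroup.index_ne_zero_of_finite
    apply Nat.eq_of_mul_eq_mul_right h4
    rw [h1, h3, mul_assoc, h2, mul_comm]
  have hcen : 2 ≤ Nat.card (Subgroup.center SS) := by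
    have h1 : Nat.card (Subgroup.center SS) ≠ 1 := by
      intro h2
      have h3 := Subgroup.card_eq_one.1 h2
      have h4 : (-1 : SS) ∈ Subgroup.center SS := neg_one_mem_center
      rw [h3, Subgroup.mem_bot] at h4
      exact one_ne_neg_one hF h4.symm
    have h2 : 0 < Nat.card (Subgroup.center SS) := Nat.card_pos
    omega
  rw [hcomap] at hcard
  have h1 : 2 * Nat.card N ≤ 2 * Nat.card F := (Nat.mul_le_mul_right _ hcen).trans hcard
  omega

end PSL

/-- `p'`-subgroups of odd order of `PSL₂(q)` have at most `q` elements (without decidability). -/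
theorem card_le_of_odd {F : Type*} [Field F] [Finite F] {p : ℕ} [Fact p.Prime] [CharP F p] (hF : (2 : F) ≠ 0)
    {N : Subgroup (Matrix.ProjectiveSpecialLinearGroup (Fin 2) F)}
    (hodd : Odd (Nat.card N)) (hp : ¬ p ∣ Nat.card N) : Nat.card N ≤ Nat.card F := by
  classical
  exact card_le_of_odd' hF hodd hp

end Cfsg.Agent.H94.IF
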